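-- Certificate checks for MWD5.
import Cfsg.Agent.Lib.Compute.TC.MWD5.Data
set_option autoImplicit false
set_option maxRecDepth 1000000

open Cfsg.Agent.Lib.Compute.ToddCoxeterCore Cfsg.Agent.Lib.Compute.ToddCoxeterPresented Cfsg.Agent.Lib.Compute.TCFast

namespace Cfsg.Agent.Lib.Compute.TC.MWD5

theorem keys0 : allFrom cfg.chkKey (nat_lit 96) (nat_lit 0) = true := by decide +kernel

end Cfsg.Agent.Lib.Compute.TC.MWD5
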